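import Cfsg.Agent.Golay94.Tools

/-!
The functionals on the code given by small sets of points: a two-point set is singled out by the number
of octads on which its functional is 1, and a map of pairs respecting sums comes from a permutation.
-/

set_option autoImplicit false

namespace Cfsg.Agent.Golay94

open Cfsg Cfsg.Agent.Golay Finset
open scoped Pointwise symmDiff

/-- The octads as a finite set. -/
noncomputable def octadSet : Finset (Finset GolayPt) := octads.toFinite.toFinset

theorem mem_octadSet {o : Finset GolayPt} : o ∈ octadSet ↔ o ∈ octads := Set.Finite.mem_toFinset _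

/-- The sum of the coordinates of `c` over `S`. -/
def evalOn (S : Finset GolayPt) (c : GolayPt → ZMod 2) : ZMod 2 := ∑ p ∈ S, c p

theorem evalOn_eq_sum (S : Finset GolayPt) (c : GolayPt → ZMod 2) :
    evalOn S c = ∑ p, indWord S p * c p := by
  simp only [evalOn, indWord, ite_mul, one_mul, zero_mul, Finset.sum_ite_mem, Finset.univ_inter]

theorem evalOn_indWord (S o : Finset GolayPt) : evalOn S (indWord o) = ((o ∩ S).card : ZMod 2) := by
  simp [evalOn, indWord, Finset.sum_ite_mem, Finset.inter_comm o S]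

theorem evalOn_one (S : Finset GolayPt) : evalOn S 1 = (S.card : ZMod 2) := by simp [evalOn]

theorem evalOn_symmDiff (S T : Finset GolayPt) (c : GolayPt → ZMod 2) :
    evalOn (S ∆ T) c = evalOn S c + evalOn T c := by
  simp only [evalOn_eq_sum, indWord_symmDiff, Pi.add_apply, add_mul, Finset.sum_add_distrib]

theorem evalOn_pair {a b : GolayPt} (h : a ≠ b) (c : GolayPt → ZMod 2) :
    evalOn {a, b} c = c a + c b := by simp [evalOn, Finset.sum_pair h]

/-- The number of octads meeting `S` in an odd number of points. -/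
noncomputable def oddCount (S : Finset GolayPt) : ℕ :=
  (octadSet.filter fun o => evalOn S (indWord o) = 1).card

theorem oddCount_smul {σ : Equiv.Perm GolayPt} (hσ : σ ∈ M24) (S : Finset GolayPt) :
    oddCount (σ • S) = oddCount S := by
  symm
  refine Finset.card_equiv (MulAction.toPerm σ) fun o => ?_
  simp only [Finset.mem_filter, MulAction.toPerm_apply, mem_octadSet, evalOn_indWord,
    ← Finset.smul_finset_inter, Finset.card_smul_finset]
  refine and_congr ⟨fun h => smul_mem_octads hσ h, fun h => ?_⟩ Iff.rfl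
  have := smul_mem_octads (inv_mem hσ) h
  rwa [inv_smul_smul] at this

theorem oddCount_bitSet (m : ℕ) : oddCount (bitSet m)
    = count4096 fun k => Nat.beq (pop24 (enc k)) 8 && Nat.beq (pop24 (enc k &&& m) % 2) 1 := by
  rw [count4096_eq, oddCount]
  symm
  refine Finset.card_bij (fun k _ => bitSet (enc k)) ?_ ?_ ?_
  · intro k hk
    simp only [Finset.mem_filter, Finset.mem_range, Bool.and_eq_true, Nat.beq_eq] at hk
    simp only [Finset.mem_filter, mem_octadSet]
    refine ⟨mem_octads_iff.2 ⟨bitSet_enc_mem k, by rw [card_bitSet, hk.2.1]⟩, ?_⟩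
    have : bitSet (enc k) ∩ bitSet m = bitSet (enc k &&& m) := by
      ext p; simp [bitSet, Nat.testBit_and]
    rw [evalOn_indWord, this, card_bitSet, ← ZMod.natCast_mod, hk.2.2, Nat.cast_one]
  · intro a ha b hb h
    simp only [Finset.mem_filter, Finset.mem_range] at ha hb
    rw [bitSet_eq, bitSet_eq] at h
    exact enc_inj ha.1 hb.1 (support₂_injective h)
  · intro o ho
    simp only [Finset.mem_filter, mem_octadSet] at ho
    obtain ⟨ho, hodd⟩ := ho
    obtain ⟨hw, h8⟩ := mem_octads_iff.1 ho
    obtain ⟨k, hk, e⟩ := (mem_golayCode_iff _).1 hw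
    have he : o = bitSet (enc k) := by rw [bitSet_eq, ← e, support₂_indWord]
    refine ⟨k, ?_, he.symm⟩
    simp only [Finset.mem_filter, Finset.mem_range, Bool.and_eq_true, Nat.beq_eq]
    refine ⟨hk, by rw [← card_bitSet, ← he, h8], ?_⟩
    have hin : bitSet (enc k) ∩ bitSet m = bitSet (enc k &&& m) := by
      ext p; simp [bitSet, Nat.testBit_and]
    rw [evalOn_indWord, he, hin, card_bitSet] at hodd
    have h2 := congrArg ZMod.val hodd
    rwa [ZMod.val_natCast, ZMod.val_one] at h2

theorem oddCount_pair_check :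
    count4096 (fun k => Nat.beq (pop24 (enc k)) 8 && Nat.beq (pop24 (enc k &&& 3) % 2) 1) = 352 := by
  decide +kernel

theorem oddCount_four_check :
    (fun n => n ≠ 352 ∧ n ≠ 0)
      (count4096 fun k => Nat.beq (pop24 (enc k)) 8 && Nat.beq (pop24 (enc k &&& 15) % 2) 1) := by
  decide +kernel

theorem exists_smul_eq_of_card {S T : Finset GolayPt} (h : S.card = T.card) (h5 : S.card ≤ 5) :
    ∃ σ ∈ M24, σ • S = T := by
  obtain ⟨σ, hσ, he⟩ := exists_map h5
    ((Fintype.equivFinOfCardEq (Fintype.card_coe S)).symm.toEmbedding.trans (Function.Embedding.subtype _))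
    ((Fintype.equivFinOfCardEq ((Fintype.card_coe T).trans h.symm)).symm.toEmbedding.trans
      (Function.Embedding.subtype _))
  refine ⟨σ, hσ, Finset.eq_of_subset_of_card_le ?_ (by rw [Finset.card_smul_finset, h])⟩
  intro p hp
  obtain ⟨q, hq, rfl⟩ := Finset.mem_smul_finset.1 hp
  have := he ((Fintype.equivFinOfCardEq (Fintype.card_coe S)) ⟨q, hq⟩)
  simp only [Function.Embedding.trans_apply, Equiv.coe_toEmbedding, Equiv.symm_apply_apply,
    Function.Embedding.subtype_apply] at this
  rw [Equiv.Perm.smul_def, this]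
  exact Subtype.coe_prop _

theorem oddCount_two {S : Finset GolayPt} (h : S.card = 2) : oddCount S = 352 := by
  have hc : S.card = (bitSet 3).card := by rw [h, card_bitSet]; decide
  obtain ⟨σ, hσ, e⟩ := exists_smul_eq_of_card hc (by omega)
  rw [← oddCount_smul hσ S, e, oddCount_bitSet, oddCount_pair_check]

theorem oddCount_four {S : Finset GolayPt} (h : S.card = 4) : oddCount S ≠ 352 ∧ oddCount S ≠ 0 := by
  have hc : S.card = (bitSet 15).card := by rw [h, card_bitSet]; decide
  obtain ⟨σ, hσ, e⟩ := exists_smul_eq_of_card hc (by omega)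
  rw [← oddCount_smul hσ S, e, oddCount_bitSet]
  exact oddCount_four_check

theorem oddCount_congr {S T : Finset GolayPt} (h : ∀ c ∈ golayCode, evalOn S c = evalOn T c) :
    oddCount S = oddCount T := by
  unfold oddCount
  congr 1
  refine Finset.filter_congr fun o ho => ?_
  rw [h _ (mem_octads_iff.1 (mem_octadSet.1 ho)).1]

theorem oddCount_empty : oddCount ∅ = 0 := by simp [oddCount, evalOn]

theorem pair_eq_of_evalOn {S T : Finset GolayPt} (hS : S.card = 2) (hT : T.card = 2)
    (h : ∀ c ∈ golayCode, evalOn S c = evalOn T c) : S = T := by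
  by_contra hne
  have h0 : oddCount (S ∆ T) = 0 := by
    rw [← oddCount_empty]
    refine oddCount_congr fun c hc => ?_
    rw [evalOn_symmDiff, h c hc, CharTwo.add_self_eq_zero]
    simp [evalOn]
  have hcard := Cfsg.Agent.Golay.card_symmDiff_add S T
  have hlt : (S ∩ T).card < 2 := by
    by_contra! h2
    have e1 := Finset.eq_of_subset_of_card_le (Finset.inter_subset_left : S ∩ T ⊆ S) (by omega)
    have e2 := Finset.eq_of_subset_of_card_le (Finset.inter_subset_right : S ∩ T ⊆ T) (by omega)
    exact hne (e1.symm.trans e2)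
  rcases (show (S ∆ T).card = 2 ∨ (S ∆ T).card = 4 by omega) with h' | h'
  · rw [oddCount_two h'] at h0; norm_num at h0
  · exact (oddCount_four h').2 h0

/-- Every functional on the code is the sum over at most four coordinates. -/
theorem exists_evalOn (f : golayCode →ₗ[ZMod 2] ZMod 2) :
    ∃ S : Finset GolayPt, S.card ≤ 4 ∧ ∀ c : golayCode, f c = evalOn S c := by
  obtain ⟨F, hF⟩ := LinearMap.exists_extend f
  obtain ⟨S, hS, hSC⟩ := exists_small_rep fun p => F (Pi.single p 1)
  refine ⟨S, hS, fun c => ?_⟩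
  have h1 : F (c : GolayPt → ZMod 2) = ∑ p, F (Pi.single p 1) * (c : GolayPt → ZMod 2) p := by
    conv_lhs => rw [pi_eq_sum_univ' (c : GolayPt → ZMod 2)]
    rw [map_sum]
    refine Finset.sum_congr rfl fun p _ => ?_
    rw [map_smul, smul_eq_mul, mul_comm]
  have h2 := golay_self_orthogonal hSC c.2
  simp only [Pi.add_apply, add_mul, Finset.sum_add_distrib] at h2
  rw [← LinearMap.congr_fun hF c, LinearMap.comp_apply, Submodule.coe_subtype, h1, evalOn_eq_sum]
  exact CharTwo.add_eq_zero.1 h2

theorem exists_common_point {𝔉 : Finset (Finset GolayPt)} (h : 4 ≤ 𝔉.card)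
    (h2 : ∀ P ∈ 𝔉, P.card = 2) (hint : ∀ P ∈ 𝔉, ∀ Q ∈ 𝔉, P ≠ Q → (P ∩ Q).Nonempty) :
    ∃ u, ∀ P ∈ 𝔉, u ∈ P := by
  classical
  obtain ⟨P, hP, Q, hQ, hPQ⟩ := Finset.one_lt_card.1 (show 1 < 𝔉.card by omega)
  obtain ⟨u, hu⟩ := hint P hP Q hQ hPQ
  rw [Finset.mem_inter] at hu
  obtain ⟨v, hv, hPv⟩ : ∃ v, v ≠ u ∧ P = {u, v} := by
    obtain ⟨x, y, hxy, rfl⟩ := Finset.card_eq_two.1 (h2 P hP)
    simp only [Finset.mem_insert, Finset.mem_singleton] at hu
    rcases hu.1 with rfl | rfl
    · exact ⟨y, hxy.symm, rfl⟩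
    · exact ⟨x, hxy, Finset.pair_comm _ _⟩
  obtain ⟨w, hw, hQw⟩ : ∃ w, w ≠ u ∧ Q = {u, w} := by
    obtain ⟨x, y, hxy, rfl⟩ := Finset.card_eq_two.1 (h2 Q hQ)
    simp only [Finset.mem_insert, Finset.mem_singleton] at hu
    rcases hu.2 with rfl | rfl
    · exact ⟨y, hxy.symm, rfl⟩
    · exact ⟨x, hxy, Finset.pair_comm _ _⟩
  have hvw : v ≠ w := fun e => hPQ (by rw [hPv, hQw, e])
  refine ⟨u, fun R hR => ?_⟩
  by_contra huR
  have hRP : R ≠ P := fun e => huR (e ▸ hu.1)
  have hRQ : R ≠ Q := fun e => huR (e ▸ hu.2)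
  have hvR : v ∈ R := by
    obtain ⟨y, hy⟩ := hint R hR P hP hRP
    rw [hPv] at hy
    simp only [Finset.mem_inter, Finset.mem_insert, Finset.mem_singleton] at hy
    rcases hy.2 with rfl | rfl
    · exact absurd hy.1 huR
    · exact hy.1
  have hwR : w ∈ R := by
    obtain ⟨y, hy⟩ := hint R hR Q hQ hRQ
    rw [hQw] at hy
    simp only [Finset.mem_inter, Finset.mem_insert, Finset.mem_singleton] at hy
    rcases hy.2 with rfl | rfl
    · exact absurd hy.1 huR
    · exact hy.1
  have hRe : R = {v, w} := (Finset.eq_of_subset_of_card_le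
    (by simp [Finset.insert_subset_iff, hvR, hwR]) (by rw [h2 R hR, Finset.card_pair hvw])).symm
  -- a fourth member must meet all three sides of the triangle
  obtain ⟨T, hT, hTn⟩ := Finset.exists_mem_notMem_of_card_lt_card
    (show ({P, Q, R} : Finset (Finset GolayPt)).card < 𝔉.card from
      lt_of_le_of_lt Finset.card_le_three (by omega))
  simp only [Finset.mem_insert, Finset.mem_singleton, not_or] at hTn
  obtain ⟨a, b, hab, hTe⟩ := Finset.card_eq_two.1 (h2 T hT)
  have k1 := hint T hT P hP hTn.1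
  have k2 := hint T hT Q hQ hTn.2.1
  have k3 := hint T hT R hR hTn.2.2
  simp only [hTe, hPv, hQw, hRe, Finset.Nonempty, Finset.mem_inter, Finset.mem_insert,
    Finset.mem_singleton] at k1 k2 k3
  obtain ⟨h1, h2', h3⟩ := hTn
  simp only [hTe, hPv, hQw, hRe] at h1 h2' h3
  have hh : ∀ x y : GolayPt, (a = x ∧ b = y) ∨ (a = y ∧ b = x) →
      ({a, b} : Finset GolayPt) = {x, y} := by
    rintro x y (⟨rfl, rfl⟩ | ⟨rfl, rfl⟩)
    · rfl
    · exact Finset.pair_comm _ _
  obtain ⟨z1, za1, zb1⟩ := k1
  obtain ⟨z2, za2, zb2⟩ := k2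
  obtain ⟨z3, za3, zb3⟩ := k3
  rcases za1 with rfl | rfl <;> rcases zb1 with e1 | e1 <;>
    rcases za2 with rfl | rfl <;> rcases zb2 with e2 | e2 <;>
    rcases za3 with rfl | rfl <;> rcases zb3 with e3 | e3 <;> subst_vars <;>
    first
      | exact absurd rfl hab
      | exact absurd rfl hv
      | exact absurd rfl hw
      | exact absurd rfl hvw
      | exact h1 (hh _ _ (Or.inl ⟨rfl, rfl⟩))
      | exact h1 (hh _ _ (Or.inr ⟨rfl, rfl⟩))
      | exact h2' (hh _ _ (Or.inl ⟨rfl, rfl⟩))
      | exact h2' (hh _ _ (Or.inr ⟨rfl, rfl⟩))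
      | exact h3 (hh _ _ (Or.inl ⟨rfl, rfl⟩))
      | exact h3 (hh _ _ (Or.inr ⟨rfl, rfl⟩))

/-- A map of pairs sending adjacent pairs to meeting pairs comes from a permutation. -/
theorem exists_perm_of_pair_map (P : GolayPt → GolayPt → Finset GolayPt)
    (hc : ∀ a b, a ≠ b → (P a b).card = 2) (hsymm : ∀ a b, a ≠ b → P a b = P b a)
    (hinj : ∀ a b a' b', a ≠ b → a' ≠ b' → P a b = P a' b' →
      ({a, b} : Finset GolayPt) = {a', b'})
    (hmeet : ∀ a b c, a ≠ b → a ≠ c → b ≠ c → (P a b ∩ P a c).Nonempty) :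
    ∃ π : Equiv.Perm GolayPt, ∀ a b, a ≠ b → P a b = {π a, π b} := by
  classical
  have hinj' : ∀ a, Set.InjOn (P a) ↑(Finset.univ.erase a) := by
    intro a b hb b' hb' e
    simp only [Finset.coe_erase, Set.mem_sdiff, Set.mem_singleton_iff] at hb hb'
    have h := hinj a b a b' (Ne.symm hb.2) (Ne.symm hb'.2) e
    have : b ∈ ({a, b'} : Finset GolayPt) := h ▸ (by simp)
    simp only [Finset.mem_insert, Finset.mem_singleton] at this
    exact this.resolve_left hb.2
  have hu : ∀ a, ∃ u, ∀ b, b ≠ a → u ∈ P a b := by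
    intro a
    obtain ⟨u, hu⟩ := exists_common_point (𝔉 := (Finset.univ.erase a).image (P a))
      (by rw [Finset.card_image_of_injOn (hinj' a), Finset.card_erase_of_mem (Finset.mem_univ _),
            Finset.card_univ, card_golayPt]; norm_num)
      (by
        intro R hR
        obtain ⟨b, hb, rfl⟩ := Finset.mem_image.1 hR
        exact hc a b (Ne.symm (Finset.mem_erase.1 hb).1))
      (by
        intro R hR R' hR' hne
        obtain ⟨b, hb, rfl⟩ := Finset.mem_image.1 hR
        obtain ⟨b', hb', rfl⟩ := Finset.mem_image.1 hR'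
        exact hmeet a b b' (Ne.symm (Finset.mem_erase.1 hb).1) (Ne.symm (Finset.mem_erase.1 hb').1)
          (fun e => hne (by rw [e])))
    exact ⟨u, fun b hb => hu _ (Finset.mem_image_of_mem _ (by simp [hb]))⟩
  choose π hπ using hu
  have himg : ∀ a, (Finset.univ.erase a).image (P a)
      = (Finset.univ.erase (π a)).image fun y => {π a, y} := by
    intro a
    refine Finset.eq_of_subset_of_card_le ?_ ?_
    · intro R hR
      obtain ⟨b, hb, rfl⟩ := Finset.mem_image.1 hR
      obtain ⟨x, y, hxy, e⟩ := Finset.card_eq_two.1 (hc a b (Ne.symm (Finset.mem_erase.1 hb).1))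
      have hm := hπ a b (Finset.mem_erase.1 hb).1
      rw [e] at hm ⊢
      simp only [Finset.mem_insert, Finset.mem_singleton] at hm
      rw [Finset.mem_image]
      rcases hm with h | h
      · exact ⟨y, by simp [h, hxy.symm], by rw [h]⟩
      · exact ⟨x, by simp [h, hxy], by rw [h, Finset.pair_comm]⟩
    · refine Finset.card_image_le.trans ?_
      rw [Finset.card_image_of_injOn (hinj' a), Finset.card_erase_of_mem (Finset.mem_univ _),
        Finset.card_erase_of_mem (Finset.mem_univ _)]
  have π_inj : Function.Injective π := by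
    intro a a' e
    by_contra hne
    obtain ⟨b, -, hb⟩ := Finset.exists_mem_notMem_of_card_lt_card
      (show ({a, a'} : Finset GolayPt).card < (Finset.univ : Finset GolayPt).card by
        rw [Finset.card_pair hne, Finset.card_univ, card_golayPt]; norm_num)
    simp only [Finset.mem_insert, Finset.mem_singleton, not_or] at hb
    have hmem : P a b ∈ (Finset.univ.erase a').image (P a') := by
      rw [himg, ← e, ← himg]
      exact Finset.mem_image_of_mem _ (by simp [hb.1])
    obtain ⟨b', hb', eb⟩ := Finset.mem_image.1 hmem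
    have h := hinj a' b' a b (Ne.symm (Finset.mem_erase.1 hb').1) (Ne.symm hb.1) eb
    have : a' ∈ ({a, b} : Finset GolayPt) := h ▸ (by simp)
    simp only [Finset.mem_insert, Finset.mem_singleton] at this
    rcases this with h' | h'
    · exact hne h'.symm
    · exact hb.2 h'.symm
  refine ⟨Equiv.ofBijective π (Finite.injective_iff_bijective.1 π_inj), fun a b hab => ?_⟩
  have h1 := hπ a b hab.symm
  have h2 := hπ b a hab
  rw [← hsymm a b hab] at h2
  exact (Finset.eq_of_subset_of_card_le
    (by simp [Finset.insert_subset_iff, h1, h2])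
    (by rw [hc a b hab]; simp [Finset.card_pair (π_inj.ne hab)])).symm

end Cfsg.Agent.Golay94
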