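import Cfsg.Agent.Golay.M24

/-!
Small tools on the length-24 code and its group: coset representatives of weight at most four, maps of
short tuples, and a weight-8 sum inside every orbit of a word of weight 12 or 16.
-/

set_option autoImplicit false

namespace Cfsg.Agent.Golay94

open Cfsg Cfsg.Agent.Golay Finset
open scoped Pointwise symmDiff

/-- Every word is congruent modulo the code to the indicator of at most four points. -/
theorem exists_small_rep (w : GolayPt → ZMod 2) :
    ∃ s : Finset GolayPt, s.card ≤ 4 ∧ w + indWord s ∈ golayCode := by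
  have key : ∀ n, ∀ v : Finset GolayPt, v.card ≤ n →
      ∃ s : Finset GolayPt, s.card ≤ 4 ∧ indWord v + indWord s ∈ golayCode := by
    intro n
    induction n using Nat.strong_induction_on with
    | _ n ih =>
      intro v hv
      by_cases h4 : v.card ≤ 4
      · refine ⟨v, h4, ?_⟩
        rw [CharTwo.add_self_eq_zero]
        exact zero_mem _
      · obtain ⟨t, htv, htc⟩ := Finset.exists_subset_card_eq (show 5 ≤ v.card by omega)
        obtain ⟨O, ⟨hO, htO⟩, -⟩ := octads_isSteiner.2 t htc
        have h1 : 5 ≤ (v ∩ O).card := htc ▸ Finset.card_le_card (Finset.subset_inter htv htO)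
        have h2 := Cfsg.Agent.Golay.card_symmDiff_add v O
        rw [(mem_octads_iff.1 hO).2] at h2
        obtain ⟨s, hs, hmem⟩ := ih (v ∆ O).card (by omega) (v ∆ O) le_rfl
        refine ⟨s, hs, ?_⟩
        have : indWord v + indWord s = (indWord (v ∆ O) + indWord s) + indWord O := by
          rw [indWord_symmDiff]
          funext p
          simp only [Pi.add_apply]
          linear_combination (norm := ring_nf) -(CharTwo.add_self_eq_zero (indWord O p))
        rw [this]
        exact add_mem hmem (mem_octads_iff.1 hO).1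
  obtain ⟨s, hs, h⟩ := key _ (support₂ w) le_rfl
  rw [indWord_support₂] at h
  exact ⟨s, hs, h⟩

theorem exists_map {n : ℕ} (hn : n ≤ 5) (x y : Fin n ↪ GolayPt) :
    ∃ σ ∈ M24, ∀ i, σ (x i) = y i := by
  have : MulAction.IsMultiplyPretransitive M24 GolayPt n :=
    MulAction.isMultiplyPretransitive_of_le (n := 5) hn (by simp)
  obtain ⟨σ, hσ⟩ := this.exists_smul_eq x y
  exact ⟨σ, σ.2, fun i => DFunLike.congr_fun hσ i⟩

theorem exists_map_three {a b c a' b' c' : GolayPt} (hab : a ≠ b) (hac : a ≠ c) (hbc : b ≠ c)
    (hab' : a' ≠ b') (hac' : a' ≠ c') (hbc' : b' ≠ c') :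
    ∃ σ ∈ M24, σ a = a' ∧ σ b = b' ∧ σ c = c' := by
  have hx : Function.Injective ![a, b, c] := by
    intro i j h; fin_cases i <;> fin_cases j <;> simp_all
  have hy : Function.Injective ![a', b', c'] := by
    intro i j h; fin_cases i <;> fin_cases j <;> simp_all
  obtain ⟨σ, hσ, h⟩ := exists_map (by norm_num) ⟨_, hx⟩ ⟨_, hy⟩
  exact ⟨σ, hσ, h 0, h 1, h 2⟩

theorem exists_map_two {a b a' b' : GolayPt} (hab : a ≠ b) (hab' : a' ≠ b') :
    ∃ σ ∈ M24, σ a = a' ∧ σ b = b' := by
  have hx : Function.Injective ![a, b] := by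
    intro i j h; fin_cases i <;> fin_cases j <;> simp_all
  have hy : Function.Injective ![a', b'] := by
    intro i j h; fin_cases i <;> fin_cases j <;> simp_all
  obtain ⟨σ, hσ, h⟩ := exists_map (by norm_num) ⟨_, hx⟩ ⟨_, hy⟩
  exact ⟨σ, hσ, h 0, h 1⟩

/-- Exchanging a point of a set of at most four points for an outside point. -/
theorem exists_map_exchange {s : Finset GolayPt} (hs : s.card ≤ 4) {c d : GolayPt} (hc : c ∈ s)
    (hd : d ∉ s) : ∃ σ ∈ M24, (∀ x ∈ s, x ≠ c → σ x = x) ∧ σ c = d := by
  let x : s ↪ GolayPt := Function.Embedding.subtype _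
  have hy : Function.Injective fun i : s => if (i : GolayPt) = c then d else (i : GolayPt) := by
    intro i j h
    dsimp only at h
    split_ifs at h with hi hj hj
    · exact Subtype.ext (hi.trans hj.symm)
    · exact absurd (h ▸ j.2) hd
    · exact absurd (h ▸ i.2) hd
    · exact Subtype.ext h
  let e := (Fintype.equivFinOfCardEq (Fintype.card_coe s)).symm.toEmbedding
  obtain ⟨σ, hσ, h⟩ := exists_map (hs.trans (by norm_num)) (e.trans x) (e.trans ⟨_, hy⟩)
  have h' : ∀ i : s, σ i = if (i : GolayPt) = c then d else (i : GolayPt) := fun i => by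
    have := h (Fintype.equivFinOfCardEq (Fintype.card_coe s) i)
    simpa [e, x] using this
  refine ⟨σ, hσ, fun y hy' hyc => ?_, ?_⟩
  · rw [h' ⟨y, hy'⟩, if_neg hyc]
  · rw [h' ⟨c, hc⟩, if_pos rfl]

/-- The rows pulled back along four elements of the group. -/
def pulledRows : List (ℕ × List ℕ) :=
  [(44, [12650793, 4294810, 9537812, 84464, 13641904, 9568632, 10584520, 1608104, 5538256, 5309160, 13667400, 12685424]),
    (117, [13062145, 5709954, 13262980, 5405696, 10170384, 9204992, 13911680, 2019456, 1664160, 6100032, 11469952, 12661896]),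
    (146, [13062145, 7622914, 15274244, 5476616, 14551296, 9158944, 11654144, 8077824, 4038912, 2019456, 15515712, 10916112]),
    (0, [14919680, 2422785, 11163650, 3610628, 9279496, 10170384, 11952160, 1009728, 2019456, 4038912, 10021376, 11654144])]

theorem pulledRows_ok : ∀ e ∈ pulledRows, e.1 < 191 ∧ e.2.length = 12 ∧
    ∀ j < 12, ∀ p, (e.2.getD j 0).testBit (ptIdx p) = (rows.getD j 0).testBit (ptIdx (node e.1 p)) := by
  decide +kernel

theorem rows_length : rows.length = 12 := by decide

/-- Pulling back along a map commutes with the encoding. -/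
theorem ofBits_xorSel_pull (f : GolayPt → GolayPt) (l l' : List ℕ) (hlen : l'.length = l.length)
    (h : ∀ j < l.length, ∀ p, (l'.getD j 0).testBit (ptIdx p) = (l.getD j 0).testBit (ptIdx (f p)))
    (k : ℕ) : ofBits (xorSel l' k) = fun p => ofBits (xorSel l k) (f p) := by
  induction l generalizing l' k with
  | nil =>
    rw [List.length_nil, List.length_eq_zero_iff] at hlen
    subst hlen
    funext p; simp [xorSel]
  | cons r l ih =>
    cases l' with
    | nil => simp at hlen
    | cons r' l' =>
      have h0 := h 0 (by simp)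
      simp only [List.getD_cons_zero] at h0
      have ih' := ih l' (by simpa using hlen) (fun j hj p => by
        simpa using h (j + 1) (by simpa using hj) p) (k / 2)
      funext p
      simp only [xorSel, ofBits_xor, Pi.add_apply, ih']
      congr 1
      cases k.testBit 0
      · simp
      · simp [ofBits, h0]

theorem heavy_check : check4096 (fun k =>
    bif (Nat.beq (pop24 (enc k)) 12 || Nat.beq (pop24 (enc k)) 16) then
      pulledRows.any (fun e => Nat.beq (pop24 (enc k ^^^ xorSel e.2 k)) 8) else true) = true := by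
  decide +kernel

/-- A word of weight 12 or 16 and some image of it under the group differ in an octad. -/
theorem exists_octad_sum {w : GolayPt → ZMod 2} (hw : w ∈ golayCode)
    (h : (support₂ w).card = 12 ∨ (support₂ w).card = 16) :
    ∃ σ ∈ M24, (support₂ (w + fun p => w (σ.symm p))).card = 8 := by
  obtain ⟨k, hk, rfl⟩ := (mem_golayCode_iff w).1 hw
  rw [card_support₂_ofBits] at h
  have hc := of_check4096 heavy_check hk
  have hb : (Nat.beq (pop24 (enc k)) 12 || Nat.beq (pop24 (enc k)) 16) = true := by
    simpa [Nat.beq_eq] using h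
  rw [hb, cond_true, List.any_eq_true] at hc
  obtain ⟨e, he, h8⟩ := hc
  obtain ⟨hn, hlen, hrows⟩ := pulledRows_ok e he
  obtain ⟨g, hg, eg⟩ := node_mem_gen3 e.1 hn
  refine ⟨g⁻¹, inv_mem (gen3_le hg), ?_⟩
  have he' : ofBits (xorSel e.2 k) = fun p => ofBits (enc k) (g p) := by
    rw [eg]
    exact ofBits_xorSel_pull (node e.1) rows e.2 (hlen.trans rows_length.symm)
      (fun j hj => hrows j (rows_length ▸ hj)) k
  show (support₂ (ofBits (enc k) + fun p => ofBits (enc k) (g p))).card = 8
  rw [← he', ← ofBits_xor, card_support₂_ofBits]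
  exact Nat.eq_of_beq_eq_true h8

end Cfsg.Agent.Golay94
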